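import Cfsg.Agent.PrimeFPF.Rigid

/-!
Extraspecial groups with a fixed-point-free operator of prime order.
-/

set_option autoImplicit false

namespace Cfsg.Agent.PrimeFPF

open Module Subgroup

universe v w

variable {K : Type*} [Field K]

/-- An element acting trivially on an invariant subspace and on the quotient acts trivially. -/
theorem eq_one_of_reducible [IsAlgClosed K] {r : ℕ} (hr : r.Prime) (hrK : (r : K) ≠ 0)
    {W : Type w} [AddCommGroup W] [Module K W] [FiniteDimensional K W] {P : Type v} [Group P]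
    (ρ : P →* Module.End K W) (σ : MulAut P) (T : Module.End K W) (hT : T ^ r = 1)
    (hTσ : ∀ x, T * ρ x = ρ (σ x) * T) (hfpf : ∀ v, T v = v → v = 0)
    (hirr : ¬ IsIrred ρ T) (z : P) {m : ℕ} (hm : z ^ m = 1) (hmK : (m : K) ≠ 0)
    (ihd : ∀ (U : Type w) [AddCommGroup U] [Module K U] [FiniteDimensional K U],
      finrank K U < finrank K W → ∀ (ρ' : P →* Module.End K U) (T' : Module.End K U), T' ^ r = 1 →
        (∀ x, T' * ρ' x = ρ' (σ x) * T') → (∀ v, T' v = v → v = 0) → True → ρ' z = 1)
    : ρ z = 1 := by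
  have hz : True := trivial
  classical
  simp only [IsIrred, not_forall, not_or] at hirr
  obtain ⟨U, hTU, hPU, hU0, hU1⟩ := hirr
  have hlt : finrank K U < finrank K W := Submodule.finrank_lt hU1
  have hlt' : finrank K (W ⧸ U) < finrank K W := by
    have := U.finrank_quotient_add_finrank
    have : 0 < finrank K U := Nat.pos_of_ne_zero fun h => hU0 (Submodule.finrank_eq_zero.mp h)
    omega
  let ρU : P →* Module.End K U :=
    { toFun := fun y => (ρ y).restrict (hPU y)
      map_one' := LinearMap.ext fun v => Subtype.ext (by simp)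
      map_mul' := fun y z => LinearMap.ext fun v => Subtype.ext (by simp) }
  let TU : Module.End K U := T.restrict hTU
  have h1 := ihd U hlt ρU TU
    (by
      refine LinearMap.ext fun v => Subtype.ext ?_
      rw [show TU ^ r = _ from Module.End.pow_restrict r hTU]
      exact LinearMap.congr_fun hT (v : W))
    (fun y => LinearMap.ext fun v => Subtype.ext (LinearMap.congr_fun (hTσ y) (v : W)))
    (fun v hv => Subtype.ext (hfpf v (congrArg Subtype.val hv))) hz
  let ρQ : P →* Module.End K (W ⧸ U) :=
    { toFun := fun y => U.mapQ U (ρ y) (fun v hv => hPU y v hv)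
      map_one' := LinearMap.ext fun v => Submodule.Quotient.induction_on U v fun w => by simp
      map_mul' := fun y z => LinearMap.ext fun v =>
        Submodule.Quotient.induction_on U v fun w => by simp }
  let TQ : Module.End K (W ⧸ U) := U.mapQ U T (fun v hv => hTU v hv)
  have hTQ : ∀ (i : ℕ) v, (TQ ^ i) (Submodule.Quotient.mk v) = Submodule.Quotient.mk ((T ^ i) v) := by
    intro i v
    induction i with
    | zero => rfl
    | succ i ih => rw [pow_succ', Module.End.mul_apply, ih, pow_succ', Module.End.mul_apply]; rfl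
  have h2 := ihd (W ⧸ U) hlt' ρQ TQ
    (LinearMap.ext fun v => Submodule.Quotient.induction_on U v fun w => by rw [hTQ, hT]; rfl)
    (fun y => LinearMap.ext fun v => Submodule.Quotient.induction_on U v fun w =>
      congrArg Submodule.Quotient.mk (LinearMap.congr_fun (hTσ y) w))
    (by
      intro v
      refine Submodule.Quotient.induction_on U v fun w hw => ?_
      have hw' : T w - w ∈ U := (Submodule.Quotient.eq U).mp hw
      have hi : ∀ i : ℕ, (T ^ i) w - w ∈ U := by
        intro i
        induction i with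
        | zero => simp
        | succ i ih =>
          rw [pow_succ', Module.End.mul_apply]
          simpa [map_sub] using U.add_mem (hTU _ ih) hw'
      have hfix : proj T r 1 w = 0 :=
        hfpf _ (by simpa using LinearMap.congr_fun (T_proj hT (one_pow r) hr.ne_zero) w)
      rw [proj_apply] at hfix
      have hsum : (r : K)⁻¹ • ∑ i ∈ Finset.range r, ((T ^ i) w - w) ∈ U :=
        U.smul_mem _ (U.sum_mem fun i _ => hi i)
      simp only [inv_one, one_pow, one_smul] at hfix
      rw [Finset.sum_sub_distrib, smul_sub, hfix, zero_sub, Finset.sum_const, Finset.card_range,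
        ← Nat.cast_smul_eq_nsmul K, smul_smul, inv_mul_cancel₀ hrK, one_smul] at hsum
      exact (Submodule.Quotient.mk_eq_zero U).mpr (neg_mem_iff.mp hsum)) hz
  set N := ρ z - 1 with hN
  have hNv : ∀ v, N v ∈ U := fun v =>
    (Submodule.Quotient.eq U).mp (LinearMap.congr_fun h2 (Submodule.Quotient.mk v))
  have hNU : ∀ u ∈ U, N u = 0 := fun u hu => by
    rw [hN, LinearMap.sub_apply, sub_eq_zero]
    exact congrArg Subtype.val (LinearMap.congr_fun h1 ⟨u, hu⟩)
  have hNN : N * N = 0 := LinearMap.ext fun v => hNU _ (hNv v)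
  have hpow : ∀ m : ℕ, ρ z ^ m = 1 + (m : K) • N := by
    intro m
    induction m with
    | zero => simp
    | succ m ih =>
      rw [pow_succ, ih, show ρ z = 1 + N by rw [hN]; abel, add_mul, mul_add, smul_mul_assoc,
        mul_add, hNN, Nat.cast_succ, add_smul, one_smul]
      simp only [one_mul, mul_one, add_zero]
      abel
  have h0 : (m : K) • N = 0 := by
    have := hpow m
    rw [← map_pow, hm, map_one] at this
    simpa using this.symm
  exact sub_eq_zero.mp ((smul_eq_zero.mp h0).resolve_left hmK)

/-- An extraspecial `q`-group with an automorphism centralising exactly the centre: if the centre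
acts nontrivially then `q = 2`, `r = 2 ^ k + 1` and the group has order `2 ^ (2 * k + 1)`. -/
theorem extraspecial_center_trivial [IsAlgClosed K] {q r : ℕ} (hq : q.Prime) (hr : r.Prime)
    (hqK : (q : K) ≠ 0) (hrK : (r : K) ≠ 0) {W : Type w} [AddCommGroup W] [Module K W]
    [FiniteDimensional K W] {P : Type v} [Group P] [Finite P] (hP : IsPGroup q P)
    (hcard : Nat.card (center P) = q) (hne : center P ≠ ⊤)
    (h2 : ∀ a b : P, a * b * a⁻¹ * b⁻¹ ∈ center P)
    (hnorm : ∀ N : Subgroup P, N.Normal → N ≠ ⊥ → center P ≤ N)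
    (σ : MulAut P) (hσ : ∀ x, σ x * x⁻¹ ∈ center P → x ∈ center P)
    (hno : ¬ (q = 2 ∧ ∃ k, r = 2 ^ k + 1 ∧ Nat.card P = 2 ^ (2 * k + 1)))
    (ρ : P →* Module.End K W) (T : Module.End K W) (hT : T ^ r = 1)
    (hTσ : ∀ x, T * ρ x = ρ (σ x) * T) (hfpf : ∀ v, T v = v → v = 0)
    (z : P) (hz : z ∈ center P) : ρ z = 1 := by
  suffices H : ∀ d : ℕ, ∀ (W : Type w) [AddCommGroup W] [Module K W] [FiniteDimensional K W],
      finrank K W = d → ∀ (ρ : P →* Module.End K W) (T : Module.End K W), T ^ r = 1 →
      (∀ x, T * ρ x = ρ (σ x) * T) → (∀ v, T v = v → v = 0) → ρ z = 1 from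
    H _ W rfl ρ T hT hTσ hfpf
  clear hfpf hTσ hT T ρ
  intro d
  induction d using Nat.strong_induction_on with
  | _ d ih =>
  intro W _ _ _ hd ρ T hT hTσ hfpf
  classical
  haveI := Fact.mk hq
  rcases subsingleton_or_nontrivial W with hW | hW
  · exact LinearMap.ext fun u => Subsingleton.elim _ _
  by_cases hirr : IsIrred ρ T
  swap
  · refine eq_one_of_reducible hr hrK ρ σ T hT hTσ hfpf hirr z (m := q) ?_ hqK ?_
    · have : (⟨z, hz⟩ : center P) ^ Nat.card (center P) = 1 := pow_card_eq_one'
      rw [hcard] at this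
      exact congrArg Subtype.val this
    · intro U _ _ _ hU ρ' T' h1 h3 h4 _
      exact ih _ (hd ▸ hU) U rfl ρ' T' h1 h3 h4
  by_contra hρz
  have hinj : Function.Injective ρ := by
    rw [← MonoidHom.ker_eq_bot_iff]
    by_contra h
    exact hρz (MonoidHom.mem_ker.mp (hnorm _ inferInstance h hz))
  have hscalar := scalar_of_commute ρ σ hr hrK hT hTσ hfpf hirr
  have hscal : ∀ z ∈ center P, ∃ c : K, ρ z = c • 1 := fun y hy =>
    hscalar (ρ y) fun g => (show Commute y g from (mem_center_iff.mp hy g).symm).map ρ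
  have hPK : (Nat.card P : K) ≠ 0 := by
    obtain ⟨k, hk⟩ := IsPGroup.iff_card.mp hP
    rw [hk, Nat.cast_pow]
    exact pow_ne_zero _ hqK
  obtain ⟨hd2, hdr, hdvd⟩ := count_aux ρ hinj σ T hr hrK hPK hT hTσ hfpf hscal h2 hσ hscalar hne
  obtain ⟨k, hk⟩ := hP.index (center P)
  set e := finrank K W
  have he1 : 1 < e := by
    by_contra h
    have h1 : e ^ 2 ≤ 1 := by nlinarith
    rw [hd2] at h1
    exact hne (index_eq_one.mp (le_antisymm h1 (Nat.one_le_iff_ne_zero.mpr index_ne_zero_of_finite)))
  have hre : r = e + 1 := by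
    rw [← one_pow 2, Nat.sq_sub_sq] at hdvd
    rcases (hr.dvd_mul).mp hdvd with h | h
    · exact le_antisymm (Nat.le_of_dvd (by omega) h) hdr
    · have := Nat.le_of_dvd (by omega) h
      omega
  obtain ⟨j, -, hj⟩ := (Nat.dvd_prime_pow hq).mp (show e ∣ q ^ k by
    rw [← hk, ← hd2, sq]; exact dvd_mul_right _ _)
  rcases hq.eq_two_or_odd' with hq2 | hqodd
  · subst hq2
    refine hno ⟨rfl, j, by omega, ?_⟩
    rw [← (center P).card_mul_index, hcard, ← hd2, hj, ← pow_mul, ← pow_succ']
    congr 1
    omega
  · have he : Odd e := hj ▸ hqodd.pow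
    rcases hr.eq_two_or_odd' with h3 | h3
    · omega
    · rw [hre] at h3
      exact absurd he (by rw [Nat.odd_add_one] at h3; exact h3)

end Cfsg.Agent.PrimeFPF
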